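import Cfsg.Agent.Lib.Helper3.J3b.Mat
import Cfsg.Agent.Lib.Helper3.MatL3
import Cfsg.Agent.Lib.Helper3.Graph3
import Cfsg.Prelude.Def_Sporadic

set_option autoImplicit false
set_option maxRecDepth 100000

namespace Cfsg.Agent.Lib.Helper3.J3b

open Cfsg.Agent.Lib.Helper11 Cfsg.Agent.Lib.Helper3 Matrix

set_option maxHeartbeats 0

/-- the Frobenius map of `F4` -/
def frob : F4 →+* F4 where
  toFun x := x ^ 2
  map_one' := by decide
  map_mul' := by decide
  map_zero' := by decide
  map_add' := by decide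

abbrev ee : Fin 9 ≃ Fin 9 := Equiv.refl _

def mats : List (List (List F4)) := [AL, BL, AtL, BtL, AcL, BcL, ZL]

theorem lenM : ∀ W ∈ mats, W.length ≤ 9 := by decide

theorem lenOf (Ws : List (List (List F4))) (h : ∀ W ∈ Ws, W ∈ mats) : ∀ W ∈ Ws, W.length ≤ 9 :=
  fun W hW => lenM W (h W hW)

theorem sqA : toM ee AL * toM ee AL = 1 := by
  have := prod_toM_eq ee [AL, AL] [] (lenOf _ (by decide)) (by simp) (by decide +kernel)
  simpa using this

theorem powB : toM ee BL * (toM ee BL * (toM ee BL * (toM ee BL * toM ee BL))) = 1 := by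
  have := prod_toM_eq ee [BL, BL, BL, BL, BL] [] (lenOf _ (by decide)) (by simp) (by decide +kernel)
  simpa using this

theorem detA : (toM ee AL).det = 1 := by
  have h1 := congrArg Matrix.det sqA
  rw [Matrix.det_mul, Matrix.det_one] at h1
  revert h1
  generalize (toM ee AL).det = x
  revert x
  decide

theorem detB : (toM ee BL).det = 1 := by
  have h1 := congrArg Matrix.det powB
  simp only [Matrix.det_mul, Matrix.det_one] at h1
  revert h1
  generalize (toM ee BL).det = x
  revert x
  decide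

theorem uniA : (toM ee AL)ᵀ * (toM ee AL).map frob = 1 := by
  have h1 : toM ee AtL = (toM ee AL)ᵀ := by decide +kernel
  have h2 : toM ee AcL = (toM ee AL).map frob := by decide +kernel
  rw [← h1, ← h2]
  have := prod_toM_eq ee [AtL, AcL] [] (lenOf _ (by decide)) (by simp) (by decide +kernel)
  simpa using this

theorem uniB : (toM ee BL)ᵀ * (toM ee BL).map frob = 1 := by
  have h1 : toM ee BtL = (toM ee BL)ᵀ := by decide +kernel
  have h2 : toM ee BcL = (toM ee BL).map frob := by decide +kernel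
  rw [← h1, ← h2]
  have := prod_toM_eq ee [BtL, BcL] [] (lenOf _ (by decide)) (by simp) (by decide +kernel)
  simpa using this

def gA : Cfsg.SU 9 F4 2 :=
  ⟨⟨toM ee AL, detA⟩, fun u v => herm_preserved 9 2 frob (fun _ => rfl) _ uniA u v⟩
def gB : Cfsg.SU 9 F4 2 :=
  ⟨⟨toM ee BL, detB⟩, fun u v => herm_preserved 9 2 frob (fun _ => rfl) _ uniB u v⟩

def TT : Cfsg.SU 9 F4 2 →* Matrix (Fin 9) (Fin 9) F4 :=
  (Cfsg.slToMat 9 F4).comp (Cfsg.SU 9 F4 2).subtype

theorem TT_inj : Function.Injective TT := by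
  intro x y h
  apply Subtype.ext
  apply Matrix.SpecialLinearGroup.ext
  intro i j
  exact congrFun (congrFun h i) j

def vM (l : ℕ) : Cfsg.SU 9 F4 2 := if l = 1 then gA else if l = 2 then gB else 1

def pp : Fin 20520 → Fin 9 → F4 := fun i => toV ee (pt i)

def frB : Fin 9 → Fin 20520 := fun k => ⟨frBL.getD k 0 % 20520, Nat.mod_lt _ (by norm_num)⟩

theorem scalar_of_triv (g : Cfsg.SU 9 F4 2)
    (hg : (g, (1 : Equiv.Perm (Fin 20520))) ∈ projGraph TT pp) :
    ∃ c0 : F4, TT g = c0 • (1 : Matrix (Fin 9) (Fin 9) F4) :=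
  scalar_of_projGraph TT pp frB frI (toM ee frInvL) (toV ee frAL)
    (by decide +kernel) (by decide +kernel) (by decide +kernel) g hg

theorem ncOK : (mvW [AL, BL] (basL 9 witJ)).getD witK 0 ≠ (mvW [BL, AL] (basL 9 witJ)).getD witK 0 := by
  decide +kernel

theorem hS : ∀ x ∈ [1, 2], (vM x, vL ntl deg x) ∈ projGraph TT pp := by
  intro x hx
  simp only [List.mem_cons, List.mem_nil_iff, or_false] at hx
  rcases hx with rfl | rfl
  · exact setup.mem_projGraph_of_chkR (by norm_num [deg]) TT gA ee [AL] (lenOf _ (by decide))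
      (by simp; rfl) pt (fun i => ptOf2_length _ _ _ _ _) _ 1 MS1 ms1 chk1
  · exact setup.mem_projGraph_of_chkR (by norm_num [deg]) TT gB ee [BL] (lenOf _ (by decide))
      (by simp; rfl) pt (fun i => ptOf2_length _ _ _ _ _) _ 2 MS2 ms2 chk2

/-- the subgroup `3.J3` -/
abbrev HH : Subgroup (Cfsg.SU 9 F4 2) := lgrp vM [1, 2]

theorem main : Nonempty ((HH ⧸ Subgroup.center HH) ≃* lgrp (vL ntl deg) [1, 2]) ∧
    ∀ g ∈ Subgroup.center HH, ((g : Cfsg.SU 9 F4 2), (1 : Equiv.Perm (Fin 20520))) ∈
      projGraph TT pp := by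
  apply central_quot_of_graph (projGraph TT pp) _ vM (vL ntl deg) [1, 2] hS simple
  · refine ⟨1, by simp, 2, by simp, ?_⟩
    intro h
    have h2 : TT (gA * gB) = TT (gB * gA) := congrArg TT h
    have h3 : TT (gA * gB) = ([AL, BL].map (toM ee)).prod := by simp; rfl
    have h4 : TT (gB * gA) = ([BL, AL].map (toM ee)).prod := by simp; rfl
    rw [h3, h4] at h2
    exact prod_toM_ne ee _ _ (lenOf _ (by decide)) (lenOf _ (by decide)) witJ witK ncOK h2
  · intro g hg x
    obtain ⟨c0, hc⟩ := scalar_of_triv g hg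
    exact (Subgroup.mem_center_iff.1 (mem_center_of_scalar TT TT_inj g c0 hc)) x

def RRn : ℕ → List (List F4)
  | 1 => AL
  | 2 => BL
  | _ => []

def zw : List ℕ := (List.replicate 19 [1, 2]).flatten

theorem zOK : ∀ j < 9, mvW (zw.map RRn) (basL 9 j) = mvW [ZL] (basL 9 j) := by decide +kernel

theorem lenRRn (w : List ℕ) : ∀ W ∈ w.map RRn, W.length ≤ 9 := by
  intro W hW
  obtain ⟨x, _, rfl⟩ := List.mem_map.1 hW
  unfold RRn
  split
  · exact lenM _ (by decide)
  · exact lenM _ (by decide)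
  · simp

/-- the central element -/
def zz : Cfsg.SU 9 F4 2 := (gA * gB) ^ 19

theorem TT_zz : TT zz = zc • (1 : Matrix (Fin 9) (Fin 9) F4) := by
  have h1 := prod_toM_eq ee (zw.map RRn) [ZL] (lenRRn _) (lenOf _ (by decide)) zOK
  have h2 : ((zw.map RRn).map (toM ee)).prod = (toM ee AL * toM ee BL) ^ 19 := by
    rw [List.map_map]
    have := prod_map_flatten_replicate (fun l => toM ee (RRn l)) [1, 2] 19
    simp only [List.map_cons, List.map_nil, List.prod_cons, List.prod_nil, mul_one] at this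
    exact this
  have h3 : toM ee ZL = zc • (1 : Matrix (Fin 9) (Fin 9) F4) := by decide +kernel
  have h4 : TT zz = (toM ee AL * toM ee BL) ^ 19 := by
    unfold zz
    rw [map_pow, map_mul]
    rfl
  rw [h4, ← h2, h1]
  simpa using h3

theorem zz_mem : zz ∈ HH :=
  HH.pow_mem (HH.mul_mem (mem_lgrp vM (x := 1) (by simp)) (mem_lgrp vM (x := 2) (by simp))) 19

theorem cardCenter : Nat.card (Subgroup.center HH) = 3 := by
  have hsc : ∀ g : Subgroup.center HH, ∃ c : F4,
      TT ((g : HH) : Cfsg.SU 9 F4 2) = c • (1 : Matrix (Fin 9) (Fin 9) F4) :=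
    fun g => scalar_of_triv _ (main.2 g.1 g.2)
  choose c hc using hsc
  have hinj : Function.Injective c := by
    intro g g' h
    apply Subtype.ext
    apply Subtype.ext
    apply TT_inj
    rw [hc, hc, h]
  have hne : ∀ g, c g ≠ 0 := by
    intro g h0
    have h1 := hc g
    rw [h0, zero_smul] at h1
    have h2 : TT (((g : HH) : Cfsg.SU 9 F4 2) * ((g : HH) : Cfsg.SU 9 F4 2)⁻¹) = 1 := by
      rw [mul_inv_cancel, map_one]
    rw [map_mul, h1, zero_mul] at h2
    have := congrFun (congrFun h2 0) 0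
    simp at this
  have hfin : Finite (Subgroup.center HH) := Finite.of_injective c hinj
  have hle : Nat.card (Subgroup.center HH) ≤ 3 := by
    have h1 : Function.Injective (fun g => (⟨c g, hne g⟩ : {x : F4 // x ≠ 0})) := by
      intro g g' h
      exact hinj (congrArg Subtype.val h)
    have h2 := Nat.card_le_card_of_injective _ h1
    have h3 : Nat.card {x : F4 // x ≠ 0} = 3 := by
      rw [Nat.card_eq_fintype_card]
      decide
    omega
  have hzc : (⟨zz, zz_mem⟩ : HH) ∈ Subgroup.center HH := by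
    rw [Subgroup.mem_center_iff]
    intro y
    apply Subtype.ext
    exact (Subgroup.mem_center_iff.1 (mem_center_of_scalar TT TT_inj zz zc TT_zz)) y
  have hord : orderOf (⟨⟨zz, zz_mem⟩, hzc⟩ : Subgroup.center HH) = 3 := by
    apply orderOf_eq_prime
    · apply Subtype.ext
      apply Subtype.ext
      apply TT_inj
      show TT (zz ^ 3) = TT 1
      rw [map_pow, TT_zz, map_one, smul_pow, one_pow]
      have : zc ^ 3 = 1 := by decide
      rw [this, one_smul]
    · intro h
      have h1 : zz = 1 := congrArg (fun x : Subgroup.center HH => ((x : HH) : Cfsg.SU 9 F4 2)) h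
      have h2 := TT_zz
      rw [h1, map_one] at h2
      have := congrFun (congrFun h2 0) 0
      revert this
      simp only [Matrix.one_apply_eq, Matrix.smul_apply, smul_eq_mul, mul_one]
      decide
  have hdvd := orderOf_dvd_natCard (⟨⟨zz, zz_mem⟩, hzc⟩ : Subgroup.center HH)
  rw [hord] at hdvd
  have hpos : 0 < Nat.card (Subgroup.center HH) := Nat.card_pos
  have := Nat.le_of_dvd hpos hdvd
  omega

theorem isJ3 : Cfsg.IsJ3 (HH ⧸ Subgroup.center HH) := by
  obtain ⟨⟨e⟩, -⟩ := main
  refine ⟨?_, ?_⟩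
  · exact e.isSimpleGroup_congr.2 simple
  · rw [Nat.card_congr e.toEquiv, card_eq]

end Cfsg.Agent.Lib.Helper3.J3b
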