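import Cfsg.Agent.Lib.Helper3.J3b.L1A

set_option autoImplicit false
set_option maxRecDepth 100000

namespace Cfsg.Agent.Lib.Helper3.J3b.L1

open Cfsg.Agent.Lib.Helper11 Cfsg.Agent.Lib.Helper3

set_option maxHeartbeats 0
set_option Elab.async false

theorem c3 : allR (guardB 642 (cblk fc nc cc 78080 20520 79228162514264337593543950336 gens)) 5 96 = true := by decide +kernel
theorem c4 : allR (guardB 642 (cblk fc nc cc 78080 20520 79228162514264337593543950336 gens)) 5 128 = true := by decide +kernel
theorem c5 : allR (guardB 642 (cblk fc nc cc 78080 20520 79228162514264337593543950336 gens)) 5 160 = true := by decide +kernel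

end Cfsg.Agent.Lib.Helper3.J3b.L1
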