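import Cfsg.Agent.Lib.Helper3.J3b.L1A

set_option autoImplicit false
set_option maxRecDepth 100000

namespace Cfsg.Agent.Lib.Helper3.J3b.L1

open Cfsg.Agent.Lib.Helper11 Cfsg.Agent.Lib.Helper3

set_option maxHeartbeats 0
set_option Elab.async false

theorem hid_0 : BR_0.all (wordId (ntOf Cfsg.Agent.Lib.Helper3.J3b.ntl) 15) = true := by decide +kernel
theorem hid_1 : BR_1.all (wordId (ntOf Cfsg.Agent.Lib.Helper3.J3b.ntl) 15) = true := by decide +kernel
theorem hid_2 : BR_2.all (wordId (ntOf Cfsg.Agent.Lib.Helper3.J3b.ntl) 15) = true := by decide +kernel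
theorem hid_3 : BR_3.all (wordId (ntOf Cfsg.Agent.Lib.Helper3.J3b.ntl) 15) = true := by decide +kernel
theorem hid_4 : BR_4.all (wordId (ntOf Cfsg.Agent.Lib.Helper3.J3b.ntl) 15) = true := by decide +kernel
theorem hid_5 : BR_5.all (wordId (ntOf Cfsg.Agent.Lib.Helper3.J3b.ntl) 15) = true := by decide +kernel
theorem hid_6 : BR_6.all (wordId (ntOf Cfsg.Agent.Lib.Helper3.J3b.ntl) 15) = true := by decide +kernel
theorem hid_7 : BR_7.all (wordId (ntOf Cfsg.Agent.Lib.Helper3.J3b.ntl) 15) = true := by decide +kernel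
theorem hid_8 : BR_8.all (wordId (ntOf Cfsg.Agent.Lib.Helper3.J3b.ntl) 15) = true := by decide +kernel
theorem hid_9 : BR_9.all (wordId (ntOf Cfsg.Agent.Lib.Helper3.J3b.ntl) 15) = true := by decide +kernel
theorem hid_10 : BR_10.all (wordId (ntOf Cfsg.Agent.Lib.Helper3.J3b.ntl) 15) = true := by decide +kernel
theorem hid_11 : BR_11.all (wordId (ntOf Cfsg.Agent.Lib.Helper3.J3b.ntl) 15) = true := by decide +kernel
theorem hid_12 : BR_12.all (wordId (ntOf Cfsg.Agent.Lib.Helper3.J3b.ntl) 15) = true := by decide +kernel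
theorem hid_13 : BR_13.all (wordId (ntOf Cfsg.Agent.Lib.Helper3.J3b.ntl) 15) = true := by decide +kernel
theorem hid_14 : BR_14.all (wordId (ntOf Cfsg.Agent.Lib.Helper3.J3b.ntl) 15) = true := by decide +kernel
theorem hid_15 : BR_15.all (wordId (ntOf Cfsg.Agent.Lib.Helper3.J3b.ntl) 15) = true := by decide +kernel
theorem hid_16 : BR_16.all (wordId (ntOf Cfsg.Agent.Lib.Helper3.J3b.ntl) 15) = true := by decide +kernel
theorem hid_17 : BR_17.all (wordId (ntOf Cfsg.Agent.Lib.Helper3.J3b.ntl) 15) = true := by decide +kernel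
theorem hid_18 : BR_18.all (wordId (ntOf Cfsg.Agent.Lib.Helper3.J3b.ntl) 15) = true := by decide +kernel
theorem hid_19 : BR_19.all (wordId (ntOf Cfsg.Agent.Lib.Helper3.J3b.ntl) 15) = true := by decide +kernel
theorem hidg_0 : BRg_0.all (wordId (ntOf Cfsg.Agent.Lib.Helper3.J3b.ntl) 15) = true := by
  simp only [BRg_0, List.all_append, hid_0, hid_1, hid_2, hid_3, hid_4, hid_5, hid_6, hid_7, hid_8, hid_9, hid_10, hid_11, hid_12, hid_13, hid_14, hid_15, hid_16, hid_17, hid_18, hid_19, Bool.and_self]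

end Cfsg.Agent.Lib.Helper3.J3b.L1
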