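import Cfsg.Agent.Lib.Helper3.J3b.L1A

set_option autoImplicit false
set_option maxRecDepth 100000

namespace Cfsg.Agent.Lib.Helper3.J3b.L1

open Cfsg.Agent.Lib.Helper11 Cfsg.Agent.Lib.Helper3

set_option maxHeartbeats 0
set_option Elab.async false

theorem hid_20 : BR_20.all (wordId (ntOf Cfsg.Agent.Lib.Helper3.J3b.ntl) 15) = true := by decide +kernel
theorem hid_21 : BR_21.all (wordId (ntOf Cfsg.Agent.Lib.Helper3.J3b.ntl) 15) = true := by decide +kernel
theorem hid_22 : BR_22.all (wordId (ntOf Cfsg.Agent.Lib.Helper3.J3b.ntl) 15) = true := by decide +kernel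
theorem hid_23 : BR_23.all (wordId (ntOf Cfsg.Agent.Lib.Helper3.J3b.ntl) 15) = true := by decide +kernel
theorem hid_24 : BR_24.all (wordId (ntOf Cfsg.Agent.Lib.Helper3.J3b.ntl) 15) = true := by decide +kernel
theorem hid_25 : BR_25.all (wordId (ntOf Cfsg.Agent.Lib.Helper3.J3b.ntl) 15) = true := by decide +kernel
theorem hid_26 : BR_26.all (wordId (ntOf Cfsg.Agent.Lib.Helper3.J3b.ntl) 15) = true := by decide +kernel
theorem hid_27 : BR_27.all (wordId (ntOf Cfsg.Agent.Lib.Helper3.J3b.ntl) 15) = true := by decide +kernel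
theorem hid_28 : BR_28.all (wordId (ntOf Cfsg.Agent.Lib.Helper3.J3b.ntl) 15) = true := by decide +kernel
theorem hid_29 : BR_29.all (wordId (ntOf Cfsg.Agent.Lib.Helper3.J3b.ntl) 15) = true := by decide +kernel
theorem hid_30 : BR_30.all (wordId (ntOf Cfsg.Agent.Lib.Helper3.J3b.ntl) 15) = true := by decide +kernel
theorem hid_31 : BR_31.all (wordId (ntOf Cfsg.Agent.Lib.Helper3.J3b.ntl) 15) = true := by decide +kernel
theorem hid_32 : BR_32.all (wordId (ntOf Cfsg.Agent.Lib.Helper3.J3b.ntl) 15) = true := by decide +kernel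
theorem hid_33 : BR_33.all (wordId (ntOf Cfsg.Agent.Lib.Helper3.J3b.ntl) 15) = true := by decide +kernel
theorem hid_34 : BR_34.all (wordId (ntOf Cfsg.Agent.Lib.Helper3.J3b.ntl) 15) = true := by decide +kernel
theorem hid_35 : BR_35.all (wordId (ntOf Cfsg.Agent.Lib.Helper3.J3b.ntl) 15) = true := by decide +kernel
theorem hid_36 : BR_36.all (wordId (ntOf Cfsg.Agent.Lib.Helper3.J3b.ntl) 15) = true := by decide +kernel
theorem hid_37 : BR_37.all (wordId (ntOf Cfsg.Agent.Lib.Helper3.J3b.ntl) 15) = true := by decide +kernel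
theorem hid_38 : BR_38.all (wordId (ntOf Cfsg.Agent.Lib.Helper3.J3b.ntl) 15) = true := by decide +kernel
theorem hid_39 : BR_39.all (wordId (ntOf Cfsg.Agent.Lib.Helper3.J3b.ntl) 15) = true := by decide +kernel
theorem hidg_1 : BRg_1.all (wordId (ntOf Cfsg.Agent.Lib.Helper3.J3b.ntl) 15) = true := by
  simp only [BRg_1, List.all_append, hid_20, hid_21, hid_22, hid_23, hid_24, hid_25, hid_26, hid_27, hid_28, hid_29, hid_30, hid_31, hid_32, hid_33, hid_34, hid_35, hid_36, hid_37, hid_38, hid_39, Bool.and_self]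

end Cfsg.Agent.Lib.Helper3.J3b.L1
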