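import Cfsg.Agent.Lib.Helper3.J3b.L1A

set_option autoImplicit false
set_option maxRecDepth 100000

namespace Cfsg.Agent.Lib.Helper3.J3b.L1

open Cfsg.Agent.Lib.Helper11 Cfsg.Agent.Lib.Helper3

set_option maxHeartbeats 0
set_option Elab.async false

theorem hid_40 : BR_40.all (wordId (ntOf Cfsg.Agent.Lib.Helper3.J3b.ntl) 15) = true := by decide +kernel
theorem hid_41 : BR_41.all (wordId (ntOf Cfsg.Agent.Lib.Helper3.J3b.ntl) 15) = true := by decide +kernel
theorem hid_42 : BR_42.all (wordId (ntOf Cfsg.Agent.Lib.Helper3.J3b.ntl) 15) = true := by decide +kernel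
theorem hid_43 : BR_43.all (wordId (ntOf Cfsg.Agent.Lib.Helper3.J3b.ntl) 15) = true := by decide +kernel
theorem hid_44 : BR_44.all (wordId (ntOf Cfsg.Agent.Lib.Helper3.J3b.ntl) 15) = true := by decide +kernel
theorem hid_45 : BR_45.all (wordId (ntOf Cfsg.Agent.Lib.Helper3.J3b.ntl) 15) = true := by decide +kernel
theorem hid_46 : BR_46.all (wordId (ntOf Cfsg.Agent.Lib.Helper3.J3b.ntl) 15) = true := by decide +kernel
theorem hid_47 : BR_47.all (wordId (ntOf Cfsg.Agent.Lib.Helper3.J3b.ntl) 15) = true := by decide +kernel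
theorem hid_48 : BR_48.all (wordId (ntOf Cfsg.Agent.Lib.Helper3.J3b.ntl) 15) = true := by decide +kernel
theorem hid_49 : BR_49.all (wordId (ntOf Cfsg.Agent.Lib.Helper3.J3b.ntl) 15) = true := by decide +kernel
theorem hid_50 : BR_50.all (wordId (ntOf Cfsg.Agent.Lib.Helper3.J3b.ntl) 15) = true := by decide +kernel
theorem hid_51 : BR_51.all (wordId (ntOf Cfsg.Agent.Lib.Helper3.J3b.ntl) 15) = true := by decide +kernel
theorem hid_52 : BR_52.all (wordId (ntOf Cfsg.Agent.Lib.Helper3.J3b.ntl) 15) = true := by decide +kernel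
theorem hid_53 : BR_53.all (wordId (ntOf Cfsg.Agent.Lib.Helper3.J3b.ntl) 15) = true := by decide +kernel
theorem hid_54 : BR_54.all (wordId (ntOf Cfsg.Agent.Lib.Helper3.J3b.ntl) 15) = true := by decide +kernel
theorem hid_55 : BR_55.all (wordId (ntOf Cfsg.Agent.Lib.Helper3.J3b.ntl) 15) = true := by decide +kernel
theorem hid_56 : BR_56.all (wordId (ntOf Cfsg.Agent.Lib.Helper3.J3b.ntl) 15) = true := by decide +kernel
theorem hid_57 : BR_57.all (wordId (ntOf Cfsg.Agent.Lib.Helper3.J3b.ntl) 15) = true := by decide +kernel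
theorem hid_58 : BR_58.all (wordId (ntOf Cfsg.Agent.Lib.Helper3.J3b.ntl) 15) = true := by decide +kernel
theorem hid_59 : BR_59.all (wordId (ntOf Cfsg.Agent.Lib.Helper3.J3b.ntl) 15) = true := by decide +kernel
theorem hidg_2 : BRg_2.all (wordId (ntOf Cfsg.Agent.Lib.Helper3.J3b.ntl) 15) = true := by
  simp only [BRg_2, List.all_append, hid_40, hid_41, hid_42, hid_43, hid_44, hid_45, hid_46, hid_47, hid_48, hid_49, hid_50, hid_51, hid_52, hid_53, hid_54, hid_55, hid_56, hid_57, hid_58, hid_59, Bool.and_self]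

end Cfsg.Agent.Lib.Helper3.J3b.L1
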