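import Cfsg.Agent.Lib.Helper3.J3b.L1A

set_option autoImplicit false
set_option maxRecDepth 100000

namespace Cfsg.Agent.Lib.Helper3.J3b.L1

open Cfsg.Agent.Lib.Helper11 Cfsg.Agent.Lib.Helper3

set_option maxHeartbeats 0
set_option Elab.async false

theorem hid_60 : BR_60.all (wordId (ntOf Cfsg.Agent.Lib.Helper3.J3b.ntl) 15) = true := by decide +kernel
theorem hid_61 : BR_61.all (wordId (ntOf Cfsg.Agent.Lib.Helper3.J3b.ntl) 15) = true := by decide +kernel
theorem hid_62 : BR_62.all (wordId (ntOf Cfsg.Agent.Lib.Helper3.J3b.ntl) 15) = true := by decide +kernel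
theorem hid_63 : BR_63.all (wordId (ntOf Cfsg.Agent.Lib.Helper3.J3b.ntl) 15) = true := by decide +kernel
theorem hid_64 : BR_64.all (wordId (ntOf Cfsg.Agent.Lib.Helper3.J3b.ntl) 15) = true := by decide +kernel
theorem hid_65 : BR_65.all (wordId (ntOf Cfsg.Agent.Lib.Helper3.J3b.ntl) 15) = true := by decide +kernel
theorem hid_66 : BR_66.all (wordId (ntOf Cfsg.Agent.Lib.Helper3.J3b.ntl) 15) = true := by decide +kernel
theorem hid_67 : BR_67.all (wordId (ntOf Cfsg.Agent.Lib.Helper3.J3b.ntl) 15) = true := by decide +kernel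
theorem hid_68 : BR_68.all (wordId (ntOf Cfsg.Agent.Lib.Helper3.J3b.ntl) 15) = true := by decide +kernel
theorem hid_69 : BR_69.all (wordId (ntOf Cfsg.Agent.Lib.Helper3.J3b.ntl) 15) = true := by decide +kernel
theorem hid_70 : BR_70.all (wordId (ntOf Cfsg.Agent.Lib.Helper3.J3b.ntl) 15) = true := by decide +kernel
theorem hid_71 : BR_71.all (wordId (ntOf Cfsg.Agent.Lib.Helper3.J3b.ntl) 15) = true := by decide +kernel
theorem hid_72 : BR_72.all (wordId (ntOf Cfsg.Agent.Lib.Helper3.J3b.ntl) 15) = true := by decide +kernel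
theorem hid_73 : BR_73.all (wordId (ntOf Cfsg.Agent.Lib.Helper3.J3b.ntl) 15) = true := by decide +kernel
theorem hid_74 : BR_74.all (wordId (ntOf Cfsg.Agent.Lib.Helper3.J3b.ntl) 15) = true := by decide +kernel
theorem hid_75 : BR_75.all (wordId (ntOf Cfsg.Agent.Lib.Helper3.J3b.ntl) 15) = true := by decide +kernel
theorem hid_76 : BR_76.all (wordId (ntOf Cfsg.Agent.Lib.Helper3.J3b.ntl) 15) = true := by decide +kernel
theorem hid_77 : BR_77.all (wordId (ntOf Cfsg.Agent.Lib.Helper3.J3b.ntl) 15) = true := by decide +kernel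
theorem hid_78 : BR_78.all (wordId (ntOf Cfsg.Agent.Lib.Helper3.J3b.ntl) 15) = true := by decide +kernel
theorem hid_79 : BR_79.all (wordId (ntOf Cfsg.Agent.Lib.Helper3.J3b.ntl) 15) = true := by decide +kernel
theorem hidg_3 : BRg_3.all (wordId (ntOf Cfsg.Agent.Lib.Helper3.J3b.ntl) 15) = true := by
  simp only [BRg_3, List.all_append, hid_60, hid_61, hid_62, hid_63, hid_64, hid_65, hid_66, hid_67, hid_68, hid_69, hid_70, hid_71, hid_72, hid_73, hid_74, hid_75, hid_76, hid_77, hid_78, hid_79, Bool.and_self]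

end Cfsg.Agent.Lib.Helper3.J3b.L1
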