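import Cfsg.Agent.Lib.Helper3.J3b.L1A

set_option autoImplicit false
set_option maxRecDepth 100000

namespace Cfsg.Agent.Lib.Helper3.J3b.L1

open Cfsg.Agent.Lib.Helper11 Cfsg.Agent.Lib.Helper3

set_option maxHeartbeats 0
set_option Elab.async false

theorem hid_80 : BR_80.all (wordId (ntOf Cfsg.Agent.Lib.Helper3.J3b.ntl) 15) = true := by decide +kernel
theorem hid_81 : BR_81.all (wordId (ntOf Cfsg.Agent.Lib.Helper3.J3b.ntl) 15) = true := by decide +kernel
theorem hid_82 : BR_82.all (wordId (ntOf Cfsg.Agent.Lib.Helper3.J3b.ntl) 15) = true := by decide +kernel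
theorem hid_83 : BR_83.all (wordId (ntOf Cfsg.Agent.Lib.Helper3.J3b.ntl) 15) = true := by decide +kernel
theorem hid_84 : BR_84.all (wordId (ntOf Cfsg.Agent.Lib.Helper3.J3b.ntl) 15) = true := by decide +kernel
theorem hid_85 : BR_85.all (wordId (ntOf Cfsg.Agent.Lib.Helper3.J3b.ntl) 15) = true := by decide +kernel
theorem hid_86 : BR_86.all (wordId (ntOf Cfsg.Agent.Lib.Helper3.J3b.ntl) 15) = true := by decide +kernel
theorem hid_87 : BR_87.all (wordId (ntOf Cfsg.Agent.Lib.Helper3.J3b.ntl) 15) = true := by decide +kernel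
theorem hid_88 : BR_88.all (wordId (ntOf Cfsg.Agent.Lib.Helper3.J3b.ntl) 15) = true := by decide +kernel
theorem hid_89 : BR_89.all (wordId (ntOf Cfsg.Agent.Lib.Helper3.J3b.ntl) 15) = true := by decide +kernel
theorem hid_90 : BR_90.all (wordId (ntOf Cfsg.Agent.Lib.Helper3.J3b.ntl) 15) = true := by decide +kernel
theorem hid_91 : BR_91.all (wordId (ntOf Cfsg.Agent.Lib.Helper3.J3b.ntl) 15) = true := by decide +kernel
theorem hid_92 : BR_92.all (wordId (ntOf Cfsg.Agent.Lib.Helper3.J3b.ntl) 15) = true := by decide +kernel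
theorem hid_93 : BR_93.all (wordId (ntOf Cfsg.Agent.Lib.Helper3.J3b.ntl) 15) = true := by decide +kernel
theorem hid_94 : BR_94.all (wordId (ntOf Cfsg.Agent.Lib.Helper3.J3b.ntl) 15) = true := by decide +kernel
theorem hid_95 : BR_95.all (wordId (ntOf Cfsg.Agent.Lib.Helper3.J3b.ntl) 15) = true := by decide +kernel
theorem hid_96 : BR_96.all (wordId (ntOf Cfsg.Agent.Lib.Helper3.J3b.ntl) 15) = true := by decide +kernel
theorem hid_97 : BR_97.all (wordId (ntOf Cfsg.Agent.Lib.Helper3.J3b.ntl) 15) = true := by decide +kernel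
theorem hid_98 : BR_98.all (wordId (ntOf Cfsg.Agent.Lib.Helper3.J3b.ntl) 15) = true := by decide +kernel
theorem hid_99 : BR_99.all (wordId (ntOf Cfsg.Agent.Lib.Helper3.J3b.ntl) 15) = true := by decide +kernel
theorem hidg_4 : BRg_4.all (wordId (ntOf Cfsg.Agent.Lib.Helper3.J3b.ntl) 15) = true := by
  simp only [BRg_4, List.all_append, hid_80, hid_81, hid_82, hid_83, hid_84, hid_85, hid_86, hid_87, hid_88, hid_89, hid_90, hid_91, hid_92, hid_93, hid_94, hid_95, hid_96, hid_97, hid_98, hid_99, Bool.and_self]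

end Cfsg.Agent.Lib.Helper3.J3b.L1
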