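import Cfsg.Agent.Lib.Helper3.J3b.L1
import Cfsg.Agent.Lib.Helper3.J3b.L2
import Cfsg.Agent.Lib.Helper3.Stcs6

set_option autoImplicit false
set_option maxRecDepth 100000

namespace Cfsg.Agent.Lib.Helper3.J3b

open Cfsg.Agent.Lib.Helper11 Cfsg.Agent.Lib.Helper3 MulAction

set_option maxHeartbeats 0

theorem card_eq : Nat.card (lgrp (vL ntl deg) [1, 2]) = 50232960 := by
  have hL1 := L1.card_eq
  have hL2 := L2.card_eq
  have hbot : Nat.card (lgrp (vL ntl deg) L2.hl) = 1 := by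
    show Nat.card (lgrp (vL ntl deg) []) = 1
    rw [lgrp_nil]
    exact Subgroup.card_bot
  have e0 : lgrp (vL ntl deg) L1.hl = lgrp (vL ntl deg) L2.gens := rfl
  rw [e0, hL2, hbot] at hL1
  exact hL1

def RelAll : List (List ℕ) := (L1.BR ++ L1.dl.map (fun p => p.1 ++ [p.2])) ++ (L2.BR ++ L2.dl.map (fun p => p.1 ++ [p.2]))

theorem ubAll {M : Type*} [Group M] (w : ℕ → M) (h0 : w 0 = 1) (hinv : ∀ l, w (invL INV l) = (w l)⁻¹)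
    (hrel : ∀ r ∈ RelAll, (r.map w).prod = 1) : Bd w [1, 2] 50232960 := by
  have hb := Bd_nil w
  have hb1 := L2.ub w h0 hinv (fun r hr => hrel r (by simp only [RelAll, List.mem_append]; tauto))
    (fun r hr => hrel r (by simp only [RelAll, List.mem_append]; tauto)) _ hb
  have hb0 := L1.ub w h0 hinv (fun r hr => hrel r (by simp only [RelAll, List.mem_append]; tauto))
    (fun r hr => hrel r (by simp only [RelAll, List.mem_append]; tauto)) _ hb1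
  exact hb0

theorem pretrans : IsPretransitive (lgrp (vL ntl deg) [1, 2]) (Fin deg) :=
  setup.pretransitive [1, 2] 18 (by norm_num) (by decide +kernel)

theorem okl : ∀ x ∈ dlLetters L1.gens L1.dl, vL ntl deg x ∈ lgrp (vL ntl deg) [1, 2] := by
  apply dlLetters_mem _ _ L1.dl L1.gens (fun x hx => mem_lgrp _ hx) _ (by decide +kernel)
  intro p hp
  exact setup.rels_of_wordId (L1.dl.map fun p => p.1 ++ [p.2]) (by decide +kernel) _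
    (List.mem_map.2 ⟨p, hp, rfl⟩)

def sub : List (ℕ × ℕ × List ℕ × ℕ × ℕ) := [(1, 2448, [2, 1, 3, 3, 1, 3, 3, 1, 3, 1, 2, 1, 2, 2, 1, 3, 1], 20, 8), (2449, 612, [1, 2, 1, 2, 2, 1, 2, 2, 1, 2, 1, 2, 2, 1], 15, 8), (3061, 816, [3, 1, 3, 1, 3, 1, 3, 1, 2, 1, 2, 1, 3, 3, 1, 2, 2], 16, 8), (3877, 272, [1, 3, 1, 2, 2, 1, 2, 1, 3, 1, 2, 2], 13, 8), (4149, 153, [3, 3, 1, 3, 3, 1, 2, 1, 2, 1, 2, 2, 1, 2, 1, 3], 11, 8), (4302, 102, [2, 1, 3, 3, 1, 3, 1, 2, 1, 2, 2, 1, 2, 1, 3], 11, 8), (4404, 816, [1, 3, 3, 1, 3, 1, 2, 1, 2, 1, 3, 3, 1, 2, 1], 16, 8), (5220, 1224, [1, 2, 1, 2, 1, 2, 1, 3, 1, 2, 2, 1, 2, 1, 3, 1], 17, 8), (6444, 1224, [3, 3, 1, 3, 1, 2, 1, 2, 2, 1, 2, 2, 1, 3], 18, 8), (7668, 816, [1, 2, 1, 3, 1, 2, 1, 2, 2, 1], 16, 8), (8484, 612, [3, 3, 1, 2, 2, 1, 3, 3, 1, 3, 1, 2, 1, 2, 1], 16, 8), (9096, 102, [1, 3, 1, 2, 2, 1, 2, 2, 1, 3, 3, 1, 3,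 3], 11, 8), (9198, 612, [2, 2, 1, 2, 2, 1, 2, 1, 3, 1, 3, 1, 3, 3, 1], 14, 8), (9810, 2448, [2, 1, 3, 1, 3, 3, 1, 2, 1, 2, 2, 1, 2, 1, 3], 20, 8), (12258, 1224, [3, 3, 1, 3, 3, 1, 2, 2, 1, 3, 1, 2, 1, 2, 1, 3, 3], 17, 8), (13482, 306, [2, 2, 1, 2, 2, 1, 2, 2, 1, 2, 2, 1, 2, 1, 3, 1, 3, 3, 1], 14, 8), (13788, 2448, [1, 3, 1, 2, 2, 1, 2, 1, 3, 1, 2, 2, 1, 3, 3, 1, 2, 2], 20, 8), (16236, 2448, [1, 3, 1, 3, 1, 2, 1, 3, 1, 2, 2, 1, 3, 3, 1], 20, 8), (18684, 306, [3, 3, 1, 3, 1, 2, 2, 1, 3, 3, 1, 2, 1, 2, 2], 13, 8), (18990, 1224, [2, 1, 2, 1, 2, 2, 1, 3, 1, 3, 1, 3, 1, 3, 3, 1], 18, 8), (20214, 306, [1, 3, 1, 3, 1, 3, 1, 2, 2, 1, 3, 1, 3], 13, 8)]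

theorem prim : IsPreprimitive (lgrp (vL ntl deg) [1, 2]) (Fin deg) :=
  setup.primitive [1, 2] [4, 5] (dlLetters L1.gens L1.dl) (by norm_num) pretrans okl
    (by decide +kernel) (by decide +kernel) sub (by decide +kernel) (by decide +kernel)
    (by decide +kernel)

theorem simple : IsSimpleGroup (lgrp (vL ntl deg) [1, 2]) := by
  have : Fact (Nat.Prime 19) := ⟨by norm_num⟩
  apply setup.simple_gen2 19 2 5 prim (by decide +kernel) (by decide +kernel) (by norm_num)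
    (by decide +kernel) 18018 (by norm_num) (by norm_num) (by norm_num) (by decide +kernel) (by norm_num)
  rw [card_eq]
  norm_num

end Cfsg.Agent.Lib.Helper3.J3b
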