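import Cfsg.Agent.Lib.Helper3.J3b.MatD

set_option autoImplicit false
set_option maxRecDepth 100000

namespace Cfsg.Agent.Lib.Helper3.J3b

open Cfsg.Agent.Lib.Helper11 Cfsg.Agent.Lib.Helper3 Matrix

set_option maxHeartbeats 0
set_option Elab.async false

theorem chk1_0 : genChkR [AL] pt (fun i => F4.dec (tb2 CS1 2 i)) MS1 0 513 := by
  decide +kernel
theorem chk1_1 : genChkR [AL] pt (fun i => F4.dec (tb2 CS1 2 i)) MS1 513 513 := by
  decide +kernel
theorem chk1_2 : genChkR [AL] pt (fun i => F4.dec (tb2 CS1 2 i)) MS1 1026 513 := by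
  decide +kernel
theorem chk1_3 : genChkR [AL] pt (fun i => F4.dec (tb2 CS1 2 i)) MS1 1539 513 := by
  decide +kernel
theorem chk1_4 : genChkR [AL] pt (fun i => F4.dec (tb2 CS1 2 i)) MS1 2052 513 := by
  decide +kernel
theorem chk1_5 : genChkR [AL] pt (fun i => F4.dec (tb2 CS1 2 i)) MS1 2565 513 := by
  decide +kernel
theorem chk1_6 : genChkR [AL] pt (fun i => F4.dec (tb2 CS1 2 i)) MS1 3078 513 := by
  decide +kernel
theorem chk1_7 : genChkR [AL] pt (fun i => F4.dec (tb2 CS1 2 i)) MS1 3591 513 := by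
  decide +kernel
theorem chk1_8 : genChkR [AL] pt (fun i => F4.dec (tb2 CS1 2 i)) MS1 4104 513 := by
  decide +kernel
theorem chk1_9 : genChkR [AL] pt (fun i => F4.dec (tb2 CS1 2 i)) MS1 4617 513 := by
  decide +kernel

end Cfsg.Agent.Lib.Helper3.J3b
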