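import Cfsg.Agent.Lib.Helper3.J3b.MatD

set_option autoImplicit false
set_option maxRecDepth 100000

namespace Cfsg.Agent.Lib.Helper3.J3b

open Cfsg.Agent.Lib.Helper11 Cfsg.Agent.Lib.Helper3 Matrix

set_option maxHeartbeats 0
set_option Elab.async false

theorem chk1_10 : genChkR [AL] pt (fun i => F4.dec (tb2 CS1 2 i)) MS1 5130 513 := by
  decide +kernel
theorem chk1_11 : genChkR [AL] pt (fun i => F4.dec (tb2 CS1 2 i)) MS1 5643 513 := by
  decide +kernel
theorem chk1_12 : genChkR [AL] pt (fun i => F4.dec (tb2 CS1 2 i)) MS1 6156 513 := by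
  decide +kernel
theorem chk1_13 : genChkR [AL] pt (fun i => F4.dec (tb2 CS1 2 i)) MS1 6669 513 := by
  decide +kernel
theorem chk1_14 : genChkR [AL] pt (fun i => F4.dec (tb2 CS1 2 i)) MS1 7182 513 := by
  decide +kernel
theorem chk1_15 : genChkR [AL] pt (fun i => F4.dec (tb2 CS1 2 i)) MS1 7695 513 := by
  decide +kernel
theorem chk1_16 : genChkR [AL] pt (fun i => F4.dec (tb2 CS1 2 i)) MS1 8208 513 := by
  decide +kernel
theorem chk1_17 : genChkR [AL] pt (fun i => F4.dec (tb2 CS1 2 i)) MS1 8721 513 := by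
  decide +kernel
theorem chk1_18 : genChkR [AL] pt (fun i => F4.dec (tb2 CS1 2 i)) MS1 9234 513 := by
  decide +kernel
theorem chk1_19 : genChkR [AL] pt (fun i => F4.dec (tb2 CS1 2 i)) MS1 9747 513 := by
  decide +kernel

end Cfsg.Agent.Lib.Helper3.J3b
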