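import Cfsg.Agent.Lib.Helper3.J3b.MatD

set_option autoImplicit false
set_option maxRecDepth 100000

namespace Cfsg.Agent.Lib.Helper3.J3b

open Cfsg.Agent.Lib.Helper11 Cfsg.Agent.Lib.Helper3 Matrix

set_option maxHeartbeats 0
set_option Elab.async false

theorem chk1_20 : genChkR [AL] pt (fun i => F4.dec (tb2 CS1 2 i)) MS1 10260 513 := by
  decide +kernel
theorem chk1_21 : genChkR [AL] pt (fun i => F4.dec (tb2 CS1 2 i)) MS1 10773 513 := by
  decide +kernel
theorem chk1_22 : genChkR [AL] pt (fun i => F4.dec (tb2 CS1 2 i)) MS1 11286 513 := by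
  decide +kernel
theorem chk1_23 : genChkR [AL] pt (fun i => F4.dec (tb2 CS1 2 i)) MS1 11799 513 := by
  decide +kernel
theorem chk1_24 : genChkR [AL] pt (fun i => F4.dec (tb2 CS1 2 i)) MS1 12312 513 := by
  decide +kernel
theorem chk1_25 : genChkR [AL] pt (fun i => F4.dec (tb2 CS1 2 i)) MS1 12825 513 := by
  decide +kernel
theorem chk1_26 : genChkR [AL] pt (fun i => F4.dec (tb2 CS1 2 i)) MS1 13338 513 := by
  decide +kernel
theorem chk1_27 : genChkR [AL] pt (fun i => F4.dec (tb2 CS1 2 i)) MS1 13851 513 := by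
  decide +kernel
theorem chk1_28 : genChkR [AL] pt (fun i => F4.dec (tb2 CS1 2 i)) MS1 14364 513 := by
  decide +kernel
theorem chk1_29 : genChkR [AL] pt (fun i => F4.dec (tb2 CS1 2 i)) MS1 14877 513 := by
  decide +kernel

end Cfsg.Agent.Lib.Helper3.J3b
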