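import Cfsg.Agent.Lib.Helper3.J3b.MatD

set_option autoImplicit false
set_option maxRecDepth 100000

namespace Cfsg.Agent.Lib.Helper3.J3b

open Cfsg.Agent.Lib.Helper11 Cfsg.Agent.Lib.Helper3 Matrix

set_option maxHeartbeats 0
set_option Elab.async false

theorem chk2_20 : genChkR [BL] pt (fun i => F4.dec (tb2 CS2 2 i)) MS2 10260 513 := by
  decide +kernel
theorem chk2_21 : genChkR [BL] pt (fun i => F4.dec (tb2 CS2 2 i)) MS2 10773 513 := by
  decide +kernel
theorem chk2_22 : genChkR [BL] pt (fun i => F4.dec (tb2 CS2 2 i)) MS2 11286 513 := by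
  decide +kernel
theorem chk2_23 : genChkR [BL] pt (fun i => F4.dec (tb2 CS2 2 i)) MS2 11799 513 := by
  decide +kernel
theorem chk2_24 : genChkR [BL] pt (fun i => F4.dec (tb2 CS2 2 i)) MS2 12312 513 := by
  decide +kernel
theorem chk2_25 : genChkR [BL] pt (fun i => F4.dec (tb2 CS2 2 i)) MS2 12825 513 := by
  decide +kernel
theorem chk2_26 : genChkR [BL] pt (fun i => F4.dec (tb2 CS2 2 i)) MS2 13338 513 := by
  decide +kernel
theorem chk2_27 : genChkR [BL] pt (fun i => F4.dec (tb2 CS2 2 i)) MS2 13851 513 := by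
  decide +kernel
theorem chk2_28 : genChkR [BL] pt (fun i => F4.dec (tb2 CS2 2 i)) MS2 14364 513 := by
  decide +kernel
theorem chk2_29 : genChkR [BL] pt (fun i => F4.dec (tb2 CS2 2 i)) MS2 14877 513 := by
  decide +kernel

end Cfsg.Agent.Lib.Helper3.J3b
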