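import Cfsg.Agent.Lib.Helper3.J3b.MatD

set_option autoImplicit false
set_option maxRecDepth 100000

namespace Cfsg.Agent.Lib.Helper3.J3b

open Cfsg.Agent.Lib.Helper11 Cfsg.Agent.Lib.Helper3 Matrix

set_option maxHeartbeats 0
set_option Elab.async false

theorem chk2_30 : genChkR [BL] pt (fun i => F4.dec (tb2 CS2 2 i)) MS2 15390 513 := by
  decide +kernel
theorem chk2_31 : genChkR [BL] pt (fun i => F4.dec (tb2 CS2 2 i)) MS2 15903 513 := by
  decide +kernel
theorem chk2_32 : genChkR [BL] pt (fun i => F4.dec (tb2 CS2 2 i)) MS2 16416 513 := by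
  decide +kernel
theorem chk2_33 : genChkR [BL] pt (fun i => F4.dec (tb2 CS2 2 i)) MS2 16929 513 := by
  decide +kernel
theorem chk2_34 : genChkR [BL] pt (fun i => F4.dec (tb2 CS2 2 i)) MS2 17442 513 := by
  decide +kernel
theorem chk2_35 : genChkR [BL] pt (fun i => F4.dec (tb2 CS2 2 i)) MS2 17955 513 := by
  decide +kernel
theorem chk2_36 : genChkR [BL] pt (fun i => F4.dec (tb2 CS2 2 i)) MS2 18468 513 := by
  decide +kernel
theorem chk2_37 : genChkR [BL] pt (fun i => F4.dec (tb2 CS2 2 i)) MS2 18981 513 := by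
  decide +kernel
theorem chk2_38 : genChkR [BL] pt (fun i => F4.dec (tb2 CS2 2 i)) MS2 19494 513 := by
  decide +kernel
theorem chk2_39 : genChkR [BL] pt (fun i => F4.dec (tb2 CS2 2 i)) MS2 20007 513 := by
  decide +kernel

end Cfsg.Agent.Lib.Helper3.J3b
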